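import Mathlib

/-!
# Maximality of a subgroup from suborbit lengths

`isCoatom_of_suborbits`: let `G` be a finite group acting on `α`, `x : α`, and `H` a subgroup
containing the stabiliser of `x`.  Suppose the orbit of `x` is cut by a "type" function `c` into
classes of known sizes `N i` on each of which `H` is transitive.  If no sum of the `N i` over a set of
types containing the type of `x` divides the length of the orbit (except the two trivial ones),
then `H` is a maximal subgroup.
-/

set_option autoImplicit false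

namespace Cfsg.Agent.Lib.Helper26

open MulAction

theorem card_subgroup_eq_orbit_mul {G α : Type*} [Group G] [MulAction G α] (K : Subgroup G) (x : α)
    (S : Set α) (h1 : ∀ y ∈ S, ∃ g ∈ K, g • x = y) (h2 : ∀ g ∈ K, g • x ∈ S) :
    Nat.card K = S.ncard * Nat.card ↥(K ⊓ stabilizer G x) := by
  have e1 := Subgroup.card_mul_index (stabilizer K x)
  rw [index_stabilizer] at e1
  have e2 : orbit K x = S := by
    ext y
    constructor
    · rintro ⟨g, rfl⟩
      exact h2 g.1 g.2
    · intro hy
      obtain ⟨g, hg, rfl⟩ := h1 y hy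
      exact ⟨⟨g, hg⟩, rfl⟩
  rw [e2] at e1
  have e3 : Nat.card (stabilizer K x) = Nat.card ↥(K ⊓ stabilizer G x) := by
    apply Nat.card_congr
    exact ⟨fun g => ⟨g.1.1, ⟨g.1.2, g.2⟩⟩, fun g => ⟨⟨g.1, g.2.1⟩, g.2.2⟩, fun g => rfl, fun g => rfl⟩
  rw [← e1, e3, Nat.mul_comm]

theorem ncard_types {α ι : Type*} [DecidableEq ι] (Ω : Set α) (hΩ : Ω.Finite) (c : α → ι)
    (N : ι → ℕ) (I : Finset ι) (hN : ∀ i ∈ I, {y | y ∈ Ω ∧ c y = i}.ncard = N i) :
    {y | y ∈ Ω ∧ c y ∈ I}.ncard = ∑ i ∈ I, N i := by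
  induction I using Finset.induction_on with
  | empty => simp
  | insert a I ha ih =>
    have e : {y | y ∈ Ω ∧ c y ∈ insert a I} = {y | y ∈ Ω ∧ c y = a} ∪ {y | y ∈ Ω ∧ c y ∈ I} := by
      ext y
      simp only [Finset.mem_insert, Set.mem_ofPred_eq, Set.mem_union]
      tauto
    have hdisj : Disjoint {y | y ∈ Ω ∧ c y = a} {y | y ∈ Ω ∧ c y ∈ I} := by
      rw [Set.disjoint_left]
      rintro y ⟨_, h1⟩ ⟨_, h2⟩
      exact ha (h1 ▸ h2)
    rw [e, Set.ncard_union_eq hdisj (hΩ.subset fun y hy => hy.1) (hΩ.subset fun y hy => hy.1),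
      hN a (Finset.mem_insert_self _ _),
      ih (fun i hi => hN i (Finset.mem_insert_of_mem hi)), Finset.sum_insert ha]

theorem isCoatom_of_suborbits {G α ι : Type*} [Group G] [Finite G] [MulAction G α] [DecidableEq ι]
    (x : α) (H : Subgroup G) (hSH : stabilizer G x ≤ H)
    (c : α → ι) (T : Finset ι) (N : ι → ℕ)
    (hT : ∀ y ∈ orbit G x, c y ∈ T)
    (hN : ∀ i ∈ T, {y | y ∈ orbit G x ∧ c y = i}.ncard = N i)
    (htrans : ∀ y ∈ orbit G x, ∀ z ∈ orbit G x, c y = c z → ∃ h ∈ H, h • y = z)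
    (hinv : ∀ h ∈ H, c (h • x) = c x)
    (hpos : ∀ i ∈ T, 0 < N i) (i₀ : ι) (hi₀ : c x = i₀)
    (hne : T ≠ {i₀})
    (harith : ∀ I ∈ T.powerset, i₀ ∈ I → (∑ i ∈ I, N i) ∣ (∑ i ∈ T, N i) → I = {i₀} ∨ I = T) :
    IsCoatom H := by
  classical
  subst hi₀
  have hΩ : (orbit G x).Finite := Set.finite_range _
  have hxΩ : x ∈ orbit G x := mem_orbit_self x
  have hxT : c x ∈ T := hT x hxΩ
  set S := stabilizer G x with hS
  have hSpos : 0 < Nat.card S := Nat.card_pos
  -- cardinality of an overgroup of `H`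
  have hcard : ∀ K : Subgroup G, H ≤ K → ∃ I ⊆ T, c x ∈ I ∧ Nat.card K = (∑ i ∈ I, N i) * Nat.card S := by
    intro K hHK
    let I : Finset ι := T.filter (fun i => ∃ g ∈ K, c (g • x) = i)
    have hI : I ⊆ T := Finset.filter_subset _ _
    have hxI : c x ∈ I := Finset.mem_filter.2 ⟨hxT, 1, K.one_mem, by rw [one_smul]⟩
    refine ⟨I, hI, hxI, ?_⟩
    have h := card_subgroup_eq_orbit_mul K x {y | y ∈ orbit G x ∧ c y ∈ I} ?_ ?_
    · rw [h, ncard_types _ hΩ c N I (fun i hi => hN i (hI hi)),
        inf_eq_right.2 (hSH.trans hHK)]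
    · rintro y ⟨hy, hyI⟩
      obtain ⟨_, g, hg, hgy⟩ := Finset.mem_filter.1 hyI
      obtain ⟨h, hh, hhy⟩ := htrans (g • x) (mem_orbit x g) y hy hgy
      exact ⟨h * g, K.mul_mem (hHK hh) hg, by rw [mul_smul, hhy]⟩
    · intro g hg
      exact ⟨mem_orbit x g, Finset.mem_filter.2 ⟨hT _ (mem_orbit x g), g, hg, rfl⟩⟩
  have hG : Nat.card G = (∑ i ∈ T, N i) * Nat.card S := by
    have h := card_subgroup_eq_orbit_mul (⊤ : Subgroup G) x {y | y ∈ orbit G x ∧ c y ∈ T}
      (by
        rintro y ⟨⟨g, rfl⟩, _⟩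
        exact ⟨g, Subgroup.mem_top g, rfl⟩)
      (fun g _ => ⟨mem_orbit x g, hT _ (mem_orbit x g)⟩)
    rw [Subgroup.card_top, ncard_types _ hΩ c N T hN, top_inf_eq] at h
    exact h
  have hH : Nat.card H = N (c x) * Nat.card S := by
    have h := card_subgroup_eq_orbit_mul H x {y | y ∈ orbit G x ∧ c y = c x}
      (by
        rintro y ⟨hy, hyc⟩
        obtain ⟨h, hh, hhy⟩ := htrans x hxΩ y hy hyc.symm
        exact ⟨h, hh, hhy⟩)
      (fun g hg => ⟨mem_orbit x g, hinv g hg⟩)
    rw [hN _ hxT, inf_eq_right.2 hSH] at h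
    exact h
  have hlt : N (c x) < ∑ i ∈ T, N i := by
    obtain ⟨j, hjT, hj⟩ : ∃ j ∈ T, j ≠ c x := by
      by_contra hcon
      push Not at hcon
      apply hne
      ext i
      rw [Finset.mem_singleton]
      exact ⟨fun hi => hcon i hi, fun hi => hi ▸ hxT⟩
    calc N (c x) < N (c x) + N j := Nat.lt_add_of_pos_right (hpos j hjT)
      _ = ∑ i ∈ ({c x, j} : Finset ι), N i := by rw [Finset.sum_pair hj.symm]
      _ ≤ ∑ i ∈ T, N i := Finset.sum_le_sum_of_subset (by
          intro i hi
          rcases Finset.mem_insert.1 hi with rfl | hi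
          · exact hxT
          · rw [Finset.mem_singleton.1 hi]; exact hjT)
  constructor
  · intro htop
    rw [htop, Subgroup.card_top, hG] at hH
    have := Nat.eq_of_mul_eq_mul_right hSpos hH
    omega
  · intro K hK
    obtain ⟨I, hIT, hxI, hKc⟩ := hcard K hK.le
    have hdvd : (∑ i ∈ I, N i) ∣ (∑ i ∈ T, N i) := by
      have h1 : Nat.card K ∣ Nat.card G := Subgroup.card_subgroup_dvd_card K
      rw [hKc, hG] at h1
      exact Nat.dvd_of_mul_dvd_mul_right hSpos h1
    rcases harith I (Finset.mem_powerset.2 hIT) hxI hdvd with rfl | rfl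
    · exfalso
      rw [Finset.sum_singleton, ← hH] at hKc
      exact hK.ne (Subgroup.eq_of_le_of_card_ge hK.le hKc.le)
    · rw [← hG] at hKc
      exact Subgroup.eq_top_of_card_eq K hKc

theorem card_filter_inter {α : Type*} [Fintype α] [DecidableEq α] (s : Finset α) (k i : ℕ)
    (hik : i ≤ k) :
    ((Finset.univ.powersetCard k).filter (fun y => (s ∩ y).card = i)).card =
      s.card.choose i * (Fintype.card α - s.card).choose (k - i) := by
  rw [← Finset.card_compl, ← Finset.card_powersetCard, ← Finset.card_powersetCard,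
    ← Finset.card_product]
  apply Finset.card_bij' (fun y _ => (s ∩ y, y \ s)) (fun p _ => p.1 ∪ p.2)
  · intro y hy
    simp only [Finset.mem_filter, Finset.mem_powersetCard, Finset.subset_univ, true_and] at hy
    simp only [Finset.mem_product, Finset.mem_powersetCard]
    refine ⟨⟨Finset.inter_subset_left, hy.2⟩, ?_, ?_⟩
    · intro p hp
      rw [Finset.mem_compl]
      exact (Finset.mem_sdiff.1 hp).2
    · have := Finset.card_sdiff_add_card_inter y s
      rw [Finset.inter_comm] at this
      omega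
  · rintro ⟨a, b⟩ hab
    simp only [Finset.mem_product, Finset.mem_powersetCard] at hab
    obtain ⟨⟨ha, hai⟩, hb, hbi⟩ := hab
    have hdisj : Disjoint a b := by
      rw [Finset.disjoint_left]
      intro p hpa hpb
      exact (Finset.mem_compl.1 (hb hpb)) (ha hpa)
    simp only [Finset.mem_filter, Finset.mem_powersetCard, Finset.subset_univ, true_and]
    refine ⟨by rw [Finset.card_union_of_disjoint hdisj]; omega, ?_⟩
    have : s ∩ (a ∪ b) = a := by
      ext p
      simp only [Finset.mem_inter, Finset.mem_union]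
      constructor
      · rintro ⟨hs, h | h⟩
        · exact h
        · exact absurd hs (Finset.mem_compl.1 (hb h))
      · intro h; exact ⟨ha h, Or.inl h⟩
    rw [this, hai]
  · intro y _
    show s ∩ y ∪ y \ s = y
    rw [Finset.union_comm, Finset.inter_comm, Finset.sdiff_union_inter]
  · rintro ⟨a, b⟩ hab
    simp only [Finset.mem_product, Finset.mem_powersetCard] at hab
    obtain ⟨⟨ha, hai⟩, hb, hbi⟩ := hab
    show (s ∩ (a ∪ b), (a ∪ b) \ s) = (a, b)
    congr 1
    · ext p
      simp only [Finset.mem_inter, Finset.mem_union]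
      constructor
      · rintro ⟨hs, h | h⟩
        · exact h
        · exact absurd hs (Finset.mem_compl.1 (hb h))
      · intro h; exact ⟨ha h, Or.inl h⟩
    · ext p
      simp only [Finset.mem_sdiff, Finset.mem_union]
      constructor
      · rintro ⟨h | h, hs⟩
        · exact absurd (ha h) hs
        · exact h
      · intro h; exact ⟨Or.inr h, Finset.mem_compl.1 (hb h)⟩

theorem ncard_inter_card {α : Type*} [Fintype α] [DecidableEq α] (s : Finset α) (k i : ℕ)
    (hik : i ≤ k) :
    {y : Finset α | y.card = k ∧ (s ∩ y).card = i}.ncard =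
      s.card.choose i * (Fintype.card α - s.card).choose (k - i) := by
  rw [← card_filter_inter s k i hik, ← Set.ncard_coe_finset]
  congr 1
  ext y
  simp

end Cfsg.Agent.Lib.Helper26
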