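import Cfsg.Agent.Lib.Helper26.Sibley
import Cfsg.Agent.S1514

/-!
# A set of at least two irreducible characters of the same degree is coherent
(no hypothesis on complex conjugation)
-/

set_option autoImplicit false
set_option linter.unusedSectionVars false

namespace Cfsg.Agent.Lib.Helper26.SameDeg

open Cfsg Cfsg.Agent.Lib.Helper3 Cfsg.Agent.Lib.Helper26
open scoped ComplexConjugate

variable {L : Type*} [Group L] [Fintype L] {G : Type*} [Group G] [Fintype G]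

/-- extension of an isometry on the degree zero part, all degrees being equal, from the image `Y`
of one member -/
theorem coherent_of_Y {S : Set (L → ℂ)} {τ : (L → ℂ) → (G → ℂ)}
    (hτ : IsLinearIsometryOn (zspanOn S {1}ᶜ) τ)
    (hgenS : ∀ χ ∈ S, IsGeneralizedCharacter L χ)
    (horth : ∀ χ ∈ S, ∀ φ ∈ S, χ ≠ φ → classInner χ φ = 0)
    (hdeg : ∀ φ ∈ S, ∀ ψ ∈ S, φ 1 = ψ 1) {χ₀ : L → ℂ} (hχ₀ : χ₀ ∈ S) (hD0 : χ₀ 1 ≠ 0)
    {Y : G → ℂ} (hYgen : IsGeneralizedCharacter G Y) (hYY : classInner Y Y = classInner χ₀ χ₀)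
    (hYφ : ∀ φ ∈ S, φ ≠ χ₀ → classInner Y (τ (χ₀ - φ)) = classInner χ₀ χ₀) :
    ∃ τ₁ : (L → ℂ) → (G → ℂ), IsLinearIsometryOn (zspan S) τ₁ ∧
      (∀ α ∈ zspanOn S {1}ᶜ, τ₁ α = τ α) ∧ τ₁ χ₀ = Y := by
  classical
  have hZ := isZMod_zspanOn S ({1}ᶜ : Set L)
  have sub_mem : ∀ {χ ψ : L → ℂ}, χ ∈ S → ψ ∈ S → χ - ψ ∈ zspanOn S {1}ᶜ := fun {χ ψ} hχ hψ =>
    mem_zspanOn_one.2 ⟨zspan_sub (mem_zspan hχ) (mem_zspan hψ), by simp [hdeg χ hχ ψ hψ]⟩
  set D := χ₀ 1 with hD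
  have hmex : ∀ α ∈ zspan S, ∃ m : ℤ, α 1 = m * D := by
    intro α hα
    induction hα using Submodule.span_induction with
    | mem x hx => exact ⟨1, by simp [hD, hdeg x hx χ₀ hχ₀]⟩
    | zero => exact ⟨0, by simp⟩
    | add x y _ _ hx hy =>
      obtain ⟨m, hm⟩ := hx; obtain ⟨m', hm'⟩ := hy
      exact ⟨m + m', by simp [hm, hm']; ring⟩
    | smul n x _ hx =>
      obtain ⟨m, hm⟩ := hx
      exact ⟨n * m, by simp [hm]; ring⟩
  have hmuniq : ∀ m m' : ℤ, (m : ℂ) * D = m' * D → m = m' := by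
    intro m m' h
    exact_mod_cast mul_right_cancel₀ hD0 h
  have hred : ∀ α ∈ zspan S, ∀ m : ℤ, α 1 = m * D → α - m • χ₀ ∈ zspanOn S {1}ᶜ := by
    intro α hα m hm
    exact mem_zspanOn_one.2 ⟨zspan_sub hα (zspan_zsmul _ (mem_zspan hχ₀)), by simp [hm, hD]⟩
  have hY2 : ∀ α ∈ zspan S, ∀ m : ℤ, α 1 = m * D →
      classInner Y (τ (α - m • χ₀)) = classInner χ₀ (α - m • χ₀) := by
    intro α hα
    induction hα using Submodule.span_induction with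
    | mem x hx =>
      intro m hm
      have hm1 : m = 1 := hmuniq m 1 (by rw [← hm, hdeg x hx χ₀ hχ₀]; simp [hD])
      subst hm1
      rw [one_smul]
      by_cases hx0 : x = χ₀
      · rw [hx0, sub_self, iso_zero hτ hZ, classInner_zero_right, classInner_zero_right]
      · have e1 : x - χ₀ = -(χ₀ - x) := by abel
        rw [e1, iso_neg hτ (sub_mem hχ₀ hx), classInner_neg_right, hYφ x hx hx0,
          classInner_neg_right, classInner_sub_right, horth χ₀ hχ₀ x hx (Ne.symm hx0), sub_zero]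
    | zero =>
      intro m hm
      have hm0 : m = 0 := hmuniq m 0 (by rw [← hm]; simp)
      subst hm0
      simp [iso_zero hτ hZ]
    | add x y hx hy ihx ihy =>
      intro m hm
      obtain ⟨m₁, hm₁⟩ := hmex x hx
      obtain ⟨m₂, hm₂⟩ := hmex y hy
      have hmm : m = m₁ + m₂ := hmuniq _ _ (by rw [← hm]; simp [hm₁, hm₂]; ring)
      have e1 : x + y - m • χ₀ = (x - m₁ • χ₀) + (y - m₂ • χ₀) := by rw [hmm]; module
      rw [e1, iso_add hτ (hred x hx m₁ hm₁) (hred y hy m₂ hm₂), classInner_add_right,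
        classInner_add_right, ihx m₁ hm₁, ihy m₂ hm₂]
    | smul n x hx ihx =>
      intro m hm
      obtain ⟨m₁, hm₁⟩ := hmex x hx
      have hmm : m = n * m₁ := hmuniq _ _ (by rw [← hm]; simp [hm₁]; ring)
      have e1 : n • x - m • χ₀ = n • (x - m₁ • χ₀) := by rw [hmm]; module
      rw [e1, iso_zsmul hτ n (hred x hx m₁ hm₁), classInner_zsmul_right, classInner_zsmul_right,
        ihx m₁ hm₁]
  let mf : (L → ℂ) → ℤ := fun α => if h : ∃ m : ℤ, α 1 = m * D then Classical.choose h else 0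
  have hmf : ∀ α ∈ zspan S, α 1 = mf α * D := by
    intro α hα
    have h := hmex α hα
    show α 1 = ((if h : ∃ m : ℤ, α 1 = m * D then Classical.choose h else 0 : ℤ) : ℂ) * D
    rw [dif_pos h]
    exact Classical.choose_spec h
  let τ₁ : (L → ℂ) → (G → ℂ) := fun α => mf α • Y + τ (α - mf α • χ₀)
  have hτ₁def : ∀ α, τ₁ α = mf α • Y + τ (α - mf α • χ₀) := fun _ => rfl
  refine ⟨τ₁, ⟨?_, ?_, ?_, ?_⟩, ?_, ?_⟩
  · intro α hα β hβ
    have hm : mf (α + β) = mf α + mf β := hmuniq _ _ (by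
      rw [← hmf _ (zspan_add hα hβ)]; simp [hmf α hα, hmf β hβ]; ring)
    have e1 : α + β - (mf α + mf β) • χ₀ = (α - mf α • χ₀) + (β - mf β • χ₀) := by module
    rw [hτ₁def, hτ₁def, hτ₁def, hm, e1,
      iso_add hτ (hred α hα _ (hmf α hα)) (hred β hβ _ (hmf β hβ))]
    module
  · intro α hα n
    have hm : mf (n • α) = n * mf α := hmuniq _ _ (by
      rw [← hmf _ (zspan_zsmul n hα)]; simp [hmf α hα]; ring)
    have e1 : n • α - (n * mf α) • χ₀ = n • (α - mf α • χ₀) := by module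
    rw [hτ₁def, hτ₁def, hm, e1, iso_zsmul hτ n (hred α hα _ (hmf α hα))]
    module
  · intro α hα β hβ
    have hα' := hred α hα _ (hmf α hα)
    have hβ' := hred β hβ _ (hmf β hβ)
    rw [hτ₁def, hτ₁def]
    simp only [classInner_add_left, classInner_add_right, classInner_zsmul_left,
      classInner_zsmul_right]
    rw [hYY, hY2 β hβ _ (hmf β hβ), gen_inner_comm (iso_gen hτ hα') hYgen, hY2 α hα _ (hmf α hα),
      iso_inner hτ hα' hβ']
    have e1 : classInner χ₀ (α - mf α • χ₀) = classInner (α - mf α • χ₀) χ₀ :=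
      gen_inner_comm (hgenS χ₀ hχ₀) (zspan_gen hgenS _ hα'.1)
    rw [e1]
    have e2 : classInner α β =
        classInner (mf α • χ₀ + (α - mf α • χ₀)) (mf β • χ₀ + (β - mf β • χ₀)) := by
      congr 1 <;> abel
    rw [e2]
    simp only [classInner_add_left, classInner_add_right, classInner_zsmul_left,
      classInner_zsmul_right]
  · intro α hα
    rw [hτ₁def]
    exact gen_add (gen_zsmul hYgen _) (iso_gen hτ (hred α hα _ (hmf α hα)))
  · intro α hα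
    obtain ⟨hαs, hα1⟩ := mem_zspanOn_one.1 hα
    have hm : mf α = 0 := hmuniq _ _ (by rw [← hmf α hαs, hα1]; simp)
    rw [hτ₁def, hm]; simp
  · have hm : mf χ₀ = 1 := hmuniq _ _ (by rw [← hmf χ₀ (mem_zspan hχ₀)]; simp [hD])
    rw [hτ₁def, hm]
    simp [iso_zero hτ hZ]

/-- the image of `χ₀` -/
theorem exists_Y_irr {S : Set (L → ℂ)} (hirr : ∀ χ ∈ S, IsIrrCharacter L χ)
    (hdeg : ∀ φ ∈ S, ∀ ψ ∈ S, φ 1 = ψ 1) {τ : (L → ℂ) → (G → ℂ)}
    (hτ : IsLinearIsometryOn (zspanOn S {1}ᶜ) τ) (hτ1 : ∀ α ∈ zspanOn S {1}ᶜ, τ α 1 = 0)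
    {χ₀ χ₁ : L → ℂ} (h₀ : χ₀ ∈ S) (h₁ : χ₁ ∈ S) (hne : χ₁ ≠ χ₀) :
    ∃ Y : G → ℂ, IsGeneralizedCharacter G Y ∧ classInner Y Y = 1 ∧
      ∀ φ ∈ S, φ ≠ χ₀ → classInner Y (τ (χ₀ - φ)) = 1 := by
  classical
  have sub_mem : ∀ {χ ψ : L → ℂ}, χ ∈ S → ψ ∈ S → χ - ψ ∈ zspanOn S {1}ᶜ := fun {χ ψ} hχ hψ =>
    mem_zspanOn_one.2 ⟨zspan_sub (mem_zspan hχ) (mem_zspan hψ), by simp [hdeg χ hχ ψ hψ]⟩
  have hnorm : ∀ χ ∈ S, classInner χ χ = 1 :=
    fun χ h => Cfsg.Agent.Lib.Helper15.irr_inner_self (hirr χ h)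
  have horth : ∀ χ ∈ S, ∀ φ ∈ S, χ ≠ φ → classInner χ φ = 0 := by
    intro χ hχ φ hφ hne
    by_contra h
    exact hne (Cfsg.Agent.Lib.Helper15.irr_eq_of_inner_ne_zero (hirr χ hχ) (hirr φ hφ) h)
  have hvv : ∀ φ ∈ S, φ ≠ χ₀ → ∀ φ' ∈ S, φ' ≠ χ₀ →
      classInner (τ (χ₀ - φ)) (τ (χ₀ - φ')) = if φ = φ' then 2 else 1 := by
    intro φ hφ hφ0 φ' hφ' hφ'0
    rw [iso_inner hτ (sub_mem h₀ hφ) (sub_mem h₀ hφ')]
    simp only [classInner_sub_left, classInner_sub_right, hnorm χ₀ h₀,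
      horth χ₀ h₀ φ' hφ' hφ'0.symm, horth φ hφ χ₀ h₀ hφ0]
    split_ifs with h
    · rw [h, hnorm φ' hφ']; norm_num
    · rw [horth φ hφ φ' hφ' h]; norm_num
  have hvgen : ∀ φ ∈ S, IsGeneralizedCharacter G (τ (χ₀ - φ)) :=
    fun φ hφ => iso_gen hτ (sub_mem h₀ hφ)
  obtain ⟨A, B, hA, hB, hAB, hv₁⟩ := Cfsg.Agent.S1514.gen_norm_two (hvgen χ₁ h₁)
    (by rw [hvv χ₁ h₁ hne χ₁ h₁ hne, if_pos rfl]) (hτ1 _ (sub_mem h₀ h₁))
  have gA := gen_of_irr hA
  have gB := gen_of_irr hB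
  have nA : classInner A A = 1 := Cfsg.Agent.Lib.Helper15.irr_inner_self hA
  have nB : classInner B B = 1 := Cfsg.Agent.Lib.Helper15.irr_inner_self hB
  have oAB : classInner A B = 0 := by
    by_contra h
    exact hAB (Cfsg.Agent.Lib.Helper15.irr_eq_of_inner_ne_zero hA hB h)
  have oBA : classInner B A = 0 := by rw [gen_inner_comm gB gA, oAB]
  -- the two coefficients
  have hxy : ∀ φ ∈ S, φ ≠ χ₀ → φ ≠ χ₁ →
      (classInner (τ (χ₀ - φ)) A = 1 ∧ classInner (τ (χ₀ - φ)) B = 0) ∨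
      (classInner (τ (χ₀ - φ)) A = 0 ∧ classInner (τ (χ₀ - φ)) B = -1) := by
    intro φ hφ hφ0 hφ1
    obtain ⟨x, hx⟩ := gen_inner_int (hvgen φ hφ) gA
    obtain ⟨y, hy⟩ := gen_inner_int (hvgen φ hφ) gB
    have hb := Sibley.bessel_pair (τ (χ₀ - φ)) A B nA nB oAB hx hy (N := 2)
      (by rw [hvv φ hφ hφ0 φ hφ hφ0, if_pos rfl]; norm_num)
    have hs : x - y = 1 := by
      have := hvv φ hφ hφ0 χ₁ h₁ hne
      rw [if_neg hφ1, hv₁, classInner_sub_right, hx, hy] at this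
      exact_mod_cast this
    have hx01 : x = 0 ∨ x = 1 := by
      have hy' : y = x - 1 := by omega
      rw [hy'] at hb
      have h1 : x * (x - 1) ≤ 0 := by nlinarith
      by_contra hcon
      push Not at hcon
      rcases lt_or_gt_of_ne hcon.1 with h | h
      · nlinarith
      · have : 2 ≤ x := by omega
        nlinarith
    rcases hx01 with rfl | rfl
    · right
      have : y = -1 := by omega
      rw [hx, hy, this]; simp
    · left
      have : y = 0 := by omega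
      rw [hx, hy, this]; simp
  have hχ₁A : classInner (τ (χ₀ - χ₁)) A = 1 := by
    rw [hv₁, classInner_sub_left, nA, oBA, sub_zero]
  have hχ₁B : classInner (τ (χ₀ - χ₁)) B = -1 := by
    rw [hv₁, classInner_sub_left, nB, oAB, zero_sub]
  by_cases hall : ∀ φ ∈ S, φ ≠ χ₀ → classInner (τ (χ₀ - φ)) A = 1
  · exact ⟨A, gA, nA, fun φ hφ hφ0 => by rw [gen_inner_comm gA (hvgen φ hφ), hall φ hφ hφ0]⟩
  · push Not at hall
    obtain ⟨φ₂, hφ₂, hφ₂0, hφ₂A⟩ := hall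
    have hφ₂1 : φ₂ ≠ χ₁ := fun h => hφ₂A (h ▸ hχ₁A)
    have h2 : classInner (τ (χ₀ - φ₂)) A = 0 ∧ classInner (τ (χ₀ - φ₂)) B = -1 := by
      rcases hxy φ₂ hφ₂ hφ₂0 hφ₂1 with h | h
      · exact absurd h.1 hφ₂A
      · exact h
    refine ⟨-B, gen_neg gB, by rw [classInner_neg_left, classInner_neg_right, neg_neg, nB], ?_⟩
    intro φ hφ hφ0
    rw [classInner_neg_left, gen_inner_comm gB (hvgen φ hφ)]
    by_cases hφ1 : φ = χ₁
    · rw [hφ1, hχ₁B, neg_neg]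
    rcases hxy φ hφ hφ0 hφ1 with h | h
    · exfalso
      have hne2 : φ ≠ φ₂ := by
        rintro rfl
        rw [h.1] at h2
        exact one_ne_zero h2.1
      have hzero : τ (χ₀ - φ) - τ (χ₀ - φ₂) - (A + B) = 0 := by
        apply classInner_self_eq_zero
        simp only [classInner_sub_left, classInner_sub_right, classInner_add_left,
          classInner_add_right, hvv φ hφ hφ0 φ hφ hφ0, hvv φ hφ hφ0 φ₂ hφ₂ hφ₂0,
          hvv φ₂ hφ₂ hφ₂0 φ hφ hφ0, hvv φ₂ hφ₂ hφ₂0 φ₂ hφ₂ hφ₂0, if_neg hne2,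
          if_neg hne2.symm, h.1, h.2, h2.1, h2.2, gen_inner_comm gA (hvgen φ hφ),
          gen_inner_comm gB (hvgen φ hφ), gen_inner_comm gA (hvgen φ₂ hφ₂),
          gen_inner_comm gB (hvgen φ₂ hφ₂), nA, nB, oAB, oBA]
        norm_num
      have h1 := congrFun hzero 1
      simp only [Pi.sub_apply, Pi.add_apply, Pi.zero_apply, hτ1 _ (sub_mem h₀ hφ),
        hτ1 _ (sub_mem h₀ hφ₂)] at h1
      obtain ⟨a, ha0, ha⟩ := irr_degree hA
      obtain ⟨b, hb0, hb⟩ := irr_degree hB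
      rw [ha, hb] at h1
      have : ((a + b : ℕ) : ℂ) = 0 := by push_cast; linear_combination -h1
      have : a + b = 0 := by exact_mod_cast this
      omega
    · rw [h.2, neg_neg]

/-- a set of at least two irreducible characters of the same degree is coherent -/
theorem coherent_same_degree (S : Set (L → ℂ)) (hirr : ∀ χ ∈ S, IsIrrCharacter L χ)
    (htwo : ∃ a ∈ S, ∃ b ∈ S, a ≠ b) (hdeg : ∀ φ ∈ S, ∀ ψ ∈ S, φ 1 = ψ 1)
    (τ : (L → ℂ) → (G → ℂ)) (hτ : IsLinearIsometryOn (zspanOn S {1}ᶜ) τ)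
    (hτ1 : ∀ α ∈ zspanOn S {1}ᶜ, τ α 1 = 0) : IsCoherent S {1}ᶜ τ := by
  obtain ⟨χ₀, h₀, χ₁, h₁, hne⟩ := htwo
  obtain ⟨Y, hYg, hYY, hYφ⟩ := exists_Y_irr hirr hdeg hτ hτ1 h₀ h₁ hne.symm
  have hn0 : classInner χ₀ χ₀ = 1 := Cfsg.Agent.Lib.Helper15.irr_inner_self (hirr χ₀ h₀)
  obtain ⟨τ₁, h1, h2, -⟩ := coherent_of_Y hτ (fun χ h => gen_of_irr (hirr χ h))
    (by
      intro χ hχ φ hφ hne
      by_contra h
      exact hne (Cfsg.Agent.Lib.Helper15.irr_eq_of_inner_ne_zero (hirr χ hχ) (hirr φ hφ) h))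
    hdeg h₀ (IsIrrCharacter.apply_one_ne_zero (hirr χ₀ h₀)) hYg (by rw [hYY, hn0])
    (fun φ hφ h => by rw [hYφ φ hφ h, hn0])
  refine ⟨⟨χ₀ - χ₁, mem_zspanOn_one.2 ⟨zspan_sub (mem_zspan h₀) (mem_zspan h₁), by
    simp [hdeg χ₀ h₀ χ₁ h₁]⟩, sub_ne_zero.2 hne⟩, τ₁, h1, h2⟩

end Cfsg.Agent.Lib.Helper26.SameDeg
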