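import Cfsg.Agent.Lib.Helper26.SibleyCore
import Cfsg.Agent.Lib.Helper26.SameDeg

/-!
# The abelian case of the Feit-Sibley coherence theorems
-/

set_option autoImplicit false

namespace Cfsg.Agent.Lib.Helper26.FeitSibley

open Cfsg Cfsg.Agent.Lib Cfsg.Agent.Lib.Helper26 Cfsg.Agent.Lib.Helper15
open scoped commutatorElement

section abstract

variable {L : Type*} [Group L]

/-- if `|K| = e + 1` and `K` is abelian, all non-identity elements of `K` are conjugate -/
theorem pow_eq_one_of_card [Finite L] (K : Subgroup L) [hK : K.Normal]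
    (hC : ∀ k ∈ K, k ≠ 1 → Subgroup.centralizer ({k} : Set L) ≤ K)
    (hab : ∀ x ∈ K, ∀ y ∈ K, x * y = y * x) (hcard : Nat.card K = K.index + 1) (p : ℕ)
    (hp : p.Prime) (hpd : p ∣ Nat.card K) : ∀ a ∈ K, a ^ p = 1 := by
  classical
  have := Fact.mk hp
  obtain ⟨x₀, hx₀⟩ := exists_prime_orderOf_dvd_card' (G := K) p hpd
  let _ : MulAction L K := MulAction.compHom K (MulAut.conjNormal (H := K))
  have hsmul : ∀ (g : L) (q : K), ((g • q : K) : L) = g * q * g⁻¹ := fun g q => rfl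
  have hx₀1 : x₀ ≠ 1 := by
    rintro rfl
    rw [orderOf_one] at hx₀
    exact hp.one_lt.ne hx₀
  have hx₀1' : (x₀ : L) ≠ 1 := fun h => hx₀1 (Subtype.ext h)
  have horb : (MulAction.orbit L x₀).ncard = K.index := by
    rw [← MulAction.index_stabilizer]
    congr 1
    ext g
    rw [MulAction.mem_stabilizer_iff, Subtype.ext_iff, hsmul]
    constructor
    · intro h
      apply hC x₀ x₀.2 hx₀1'
      rw [Subgroup.mem_centralizer_singleton_iff]
      calc g * x₀ = g * x₀ * g⁻¹ * g := by group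
        _ = x₀ * g := by rw [h]
    · intro hg
      rw [hab g hg x₀ x₀.2, mul_inv_cancel_right]
  have hsub : MulAction.orbit L x₀ ⊆ (Set.univ \ {1} : Set K) := by
    rintro _ ⟨g, rfl⟩
    refine ⟨Set.mem_univ _, ?_⟩
    rw [Set.mem_singleton_iff]
    intro h
    apply hx₀1'
    have h' := congrArg Subtype.val h
    simp only at h'
    rw [hsmul, Subgroup.coe_one, conj_eq_one_iff] at h'
    exact h'
  have hcard2 : (Set.univ \ {1} : Set K).ncard = K.index := by
    rw [Set.ncard_sdiff_singleton_of_mem (Set.mem_univ _), Set.ncard_univ, hcard]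
    rfl
  have heq : MulAction.orbit L x₀ = (Set.univ \ {1} : Set K) :=
    Set.eq_of_subset_of_ncard_le hsub (by rw [hcard2, horb]) (Set.toFinite _)
  intro a ha
  by_cases ha1 : a = 1
  · rw [ha1, one_pow]
  · have hm : (⟨a, ha⟩ : K) ∈ MulAction.orbit L x₀ := by
      rw [heq]
      exact ⟨Set.mem_univ _, fun h => ha1 (congrArg Subtype.val h)⟩
    obtain ⟨g, hg⟩ := hm
    have hg' : g * x₀ * g⁻¹ = a := by
      have := congrArg Subtype.val hg
      simpa [hsmul] using this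
    have hx₀p : (x₀ : L) ^ p = 1 := by
      have := pow_orderOf_eq_one x₀
      rw [hx₀] at this
      exact_mod_cast congrArg Subtype.val this
    rw [← hg', conj_pow, hx₀p, mul_one, mul_inv_cancel]

theorem comm_eq_bot (K : Subgroup L) (hab : ∀ x ∈ K, ∀ y ∈ K, x * y = y * x) : ⁅K, K⁆ = ⊥ := by
  rw [Subgroup.commutator_eq_bot_iff_le_centralizer]
  intro x hx
  rw [Subgroup.mem_centralizer_iff]
  intro y hy
  exact hab y hy x hx

variable [Fintype L] {G : Type*} [Group G] [Fintype G]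

theorem deg1' (K : Subgroup L) : ∀ ξ ∈ inducedIrrAbove K ⁅K, K⁆, ξ 1 = (K.index : ℂ) := by
  rintro φ ⟨θ, h1, _, h3, rfl⟩
  have : θ 1 = 1 := by
    apply (Cfsg.Agent.Lib.Helper80.char_one_eq_one_iff ⟨θ, h1⟩).2
    intro n hn
    apply h3 n
    have h4 : (commutator K).map K.subtype = ⁅K, K⁆ := by
      rw [commutator_def, Subgroup.map_commutator, ← MonoidHom.range_eq_map,
        Subgroup.range_subtype]
    rw [← h4]
    exact ⟨n, hn, rfl⟩
  rw [indFun_one, this, mul_one]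

/-- the abelian case -/
theorem abelian_case (K : Subgroup L) [hK : K.Normal] (hKbot : K ≠ ⊥)
    (hC : ∀ k ∈ K, k ≠ 1 → Subgroup.centralizer ({k} : Set L) ≤ K)
    (hab : ∀ x ∈ K, ∀ y ∈ K, x * y = y * x) (τ : (L → ℂ) → (G → ℂ))
    (hτ : IsLinearIsometryOn (zspanOn (inducedIrrAbove K ⊥) {1}ᶜ) τ)
    (hτ1 : ∀ α ∈ zspanOn (inducedIrrAbove K ⊥) {1}ᶜ, τ α 1 = 0) :
    (Nat.card {χ : L → ℂ // χ ∈ inducedIrrAbove K ⊥} = 1 ∧ Nat.card K = K.index + 1) ∨
      IsCoherent (inducedIrrAbove K ⊥) {1}ᶜ τ := by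
  classical
  have hirr : ∀ χ ∈ inducedIrrAbove K ⊥, IsIrrCharacter L χ := by
    rintro χ ⟨θ, h1, h2, _, rfl⟩
    exact Cfsg.Agent.S1528.irr_indFun K hC h1 h2
  have hdeg : ∀ ξ ∈ inducedIrrAbove K ⊥, ξ 1 = (K.index : ℂ) := by
    have := deg1' K
    rwa [comm_eq_bot K hab] at this
  by_cases htwo : ∃ a ∈ inducedIrrAbove K ⊥, ∃ b ∈ inducedIrrAbove K ⊥, a ≠ b
  · right
    exact SameDeg.coherent_same_degree _ hirr htwo
      (fun φ hφ ψ hψ => by rw [hdeg φ hφ, hdeg ψ hψ]) τ hτ hτ1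
  · left
    push Not at htwo
    have hsolv : Group.IsSolvable K := Group.isSolvable_of_comm (fun a b =>
      Subtype.ext (hab a a.2 b b.2))
    obtain ⟨φ, hφ, _⟩ := IndIrr.exists_linear K hsolv ⊥ (bot_lt_iff_ne_bot.2 hKbot)
    refine ⟨?_, ?_⟩
    · rw [Nat.card_eq_one_iff_unique]
      exact ⟨⟨fun a b => Subtype.ext (htwo a a.2 b b.2)⟩, ⟨⟨φ, hφ⟩⟩⟩
    · have hsum := IndIrr.sum_sq K ⊥ bot_le (fun _ => K.index) (fun _ => 1)
        (fun χ hχ => hdeg χ hχ) (fun χ hχ => by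
          rw [irr_inner_self (hirr χ hχ)]; simp)
      have hfs : (IndIrr.finite K ⊥).toFinset = {φ} := by
        ext x
        rw [Set.Finite.mem_toFinset, Finset.mem_singleton]
        exact ⟨fun hx => htwo x hx φ hφ, fun hx => hx ▸ hφ⟩
      rw [hfs, Finset.sum_singleton, Subgroup.relIndex_bot_left] at hsum
      have hKi : (K.index : ℝ) ≠ 0 := by
        exact_mod_cast (Subgroup.index_ne_zero_of_finite (H := K))
      have h2 : (K.index : ℝ) = (Nat.card K : ℝ) - 1 := by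
        have h3 : (K.index : ℝ) * (K.index : ℝ) = (K.index : ℝ) * ((Nat.card K : ℝ) - 1) := by
          rw [← hsum]; simp; ring
        exact mul_left_cancel₀ hKi h3
      have h4 : (Nat.card K : ℝ) = ((K.index + 1 : ℕ) : ℝ) := by push_cast; linarith
      exact_mod_cast h4

end abstract

end Cfsg.Agent.Lib.Helper26.FeitSibley
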