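import Cfsg.Agent.Lib.Helper7.LeechCount
import Cfsg.Agent.Lib.Helper7.GolayWeights
import Cfsg.Agent.S0360
import Cfsg.Agent.S0361

/-!
Generalisation of helper7's generating-function engine for the Leech lattice: an arbitrary
per-coordinate exponent `φ : ℤ → ℕ` instead of the square, so that shapes can be counted.
-/

set_option autoImplicit false
set_option maxRecDepth 100000

namespace Cfsg.Agent.Lib.Helper26.LeechShape

open Cfsg Finset Cfsg.Agent.Lib.Helper7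

variable (φ : ℤ → ℕ)

noncomputable def PPg (B : ℤ) (ρ : ℤ) : ℤ := ∑ v ∈ VV ρ, B ^ φ v
noncomputable def QQg (B : ℤ) (ρ : ℤ) : ℤ := ∑ v ∈ VV ρ, (-1) ^ (nn v) * B ^ φ v
def eeg (x : GolayPt → ℤ) : ℕ := ∑ i, φ (x i)

theorem PPg0 (B : ℤ) : PPg φ B 0 = B ^ φ (-8) + B ^ φ (-4) + B ^ φ 0 + B ^ φ 4 + B ^ φ 8 := by
  rw [PPg, VV0]
  rw [Finset.sum_insert (by decide), Finset.sum_insert (by decide), Finset.sum_insert (by decide),
    Finset.sum_insert (by decide), Finset.sum_singleton]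
  ring
theorem PPg1 (B : ℤ) : PPg φ B 1 = B ^ φ (-7) + B ^ φ (-3) + B ^ φ 1 + B ^ φ 5 := by
  rw [PPg, VV1]
  rw [Finset.sum_insert (by decide), Finset.sum_insert (by decide), Finset.sum_insert (by decide),
    Finset.sum_singleton]
  ring
theorem PPg2 (B : ℤ) : PPg φ B 2 = B ^ φ (-6) + B ^ φ (-2) + B ^ φ 2 + B ^ φ 6 := by
  rw [PPg, VV2]
  rw [Finset.sum_insert (by decide), Finset.sum_insert (by decide), Finset.sum_insert (by decide),
    Finset.sum_singleton]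
  ring
theorem PPg3 (B : ℤ) : PPg φ B 3 = B ^ φ (-5) + B ^ φ (-1) + B ^ φ 3 + B ^ φ 7 := by
  rw [PPg, VV3]
  rw [Finset.sum_insert (by decide), Finset.sum_insert (by decide), Finset.sum_insert (by decide),
    Finset.sum_singleton]
  ring
theorem QQg0 (B : ℤ) : QQg φ B 0 = B ^ φ (-8) - B ^ φ (-4) + B ^ φ 0 - B ^ φ 4 + B ^ φ 8 := by
  rw [QQg, VV0]
  rw [Finset.sum_insert (by decide), Finset.sum_insert (by decide), Finset.sum_insert (by decide),
    Finset.sum_insert (by decide), Finset.sum_singleton]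
  have h1 : nn (-8) = 0 := by decide
  have h2 : nn (-4) = 1 := by decide
  have h3 : nn 0 = 2 := by decide
  have h4 : nn 4 = 3 := by decide
  have h5 : nn 8 = 4 := by decide
  rw [h1, h2, h3, h4, h5]
  ring
theorem QQg1 (B : ℤ) : QQg φ B 1 = B ^ φ (-7) - B ^ φ (-3) + B ^ φ 1 - B ^ φ 5 := by
  rw [QQg, VV1]
  rw [Finset.sum_insert (by decide), Finset.sum_insert (by decide), Finset.sum_insert (by decide),
    Finset.sum_singleton]
  have h1 : nn (-7) = 0 := by decide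
  have h2 : nn (-3) = 1 := by decide
  have h3 : nn 1 = 2 := by decide
  have h4 : nn 5 = 3 := by decide
  rw [h1, h2, h3, h4]
  ring
theorem QQg2 (B : ℤ) : QQg φ B 2 = B ^ φ (-6) - B ^ φ (-2) + B ^ φ 2 - B ^ φ 6 := by
  rw [QQg, VV2]
  rw [Finset.sum_insert (by decide), Finset.sum_insert (by decide), Finset.sum_insert (by decide),
    Finset.sum_singleton]
  have h1 : nn (-6) = 0 := by decide
  have h2 : nn (-2) = 1 := by decide
  have h3 : nn 2 = 2 := by decide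
  have h4 : nn 6 = 3 := by decide
  rw [h1, h2, h3, h4]
  ring
theorem QQg3 (B : ℤ) : QQg φ B 3 = B ^ φ (-5) - B ^ φ (-1) + B ^ φ 3 - B ^ φ 7 := by
  rw [QQg, VV3]
  rw [Finset.sum_insert (by decide), Finset.sum_insert (by decide), Finset.sum_insert (by decide),
    Finset.sum_singleton]
  have h1 : nn (-5) = 0 := by decide
  have h2 : nn (-1) = 1 := by decide
  have h3 : nn 3 = 2 := by decide
  have h4 : nn 7 = 3 := by decide
  rw [h1, h2, h3, h4]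
  ring

theorem two_mul_sum_SSg (B : ℤ) (m : ℕ) (C : Finset GolayPt) (hC : 4 ∣ C.card) :
    2 * ∑ x ∈ SS m C, B ^ eeg φ x =
      PPg φ B (m + 2) ^ C.card * PPg φ B m ^ (24 - C.card) +
        (-1) ^ m * (QQg φ B (m + 2) ^ C.card * QQg φ B m ^ (24 - C.card)) := by
  rw [← prod_rho (PPg φ B), ← prod_rho (QQg φ B)]
  unfold PPg QQg
  rw [Finset.prod_univ_sum, Finset.prod_univ_sum, SS, Finset.sum_filter, Finset.mul_sum,
    Finset.mul_sum, ← Finset.sum_add_distrib]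
  apply Finset.sum_congr rfl
  intro x hx
  have := indicator_eq m C hC x hx
  rw [Finset.prod_mul_distrib, Finset.prod_pow_eq_pow_sum]
  change _ = B ^ eeg φ x + _ * (_ * B ^ eeg φ x)
  rw [← mul_assoc, ← one_add_mul, ← this]
  split_ifs <;> simp

/-- the weight-`w` contribution -/
noncomputable def FFg (B : ℤ) (w : ℕ) : ℤ :=
  ∑ m ∈ Finset.range 2, (PPg φ B ((m : ℤ) + 2) ^ w * PPg φ B m ^ (24 - w) +
    (-1) ^ m * (QQg φ B ((m : ℤ) + 2) ^ w * QQg φ B m ^ (24 - w)))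

theorem two_mul_sum_LLg (B : ℤ) : 2 * ∑ x ∈ LL, B ^ eeg φ x = ∑ C ∈ GCfin, FFg φ B C.card := by
  rw [sum_LL, Finset.sum_comm, Finset.mul_sum]
  apply Finset.sum_congr rfl
  intro C hC
  rw [Finset.mul_sum, FFg]
  apply Finset.sum_congr rfl
  intro m _
  exact two_mul_sum_SSg φ B m C (Cfsg.Agent.Lib.Helper8.golay_four_dvd (mem_GCfin.1 hC))

/-- explicit form -/
def FFxg (B : ℤ) (w : ℕ) : ℤ :=
  (B ^ φ (-6) + B ^ φ (-2) + B ^ φ 2 + B ^ φ 6) ^ w *
      (B ^ φ (-8) + B ^ φ (-4) + B ^ φ 0 + B ^ φ 4 + B ^ φ 8) ^ (24 - w)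
   + (B ^ φ (-6) - B ^ φ (-2) + B ^ φ 2 - B ^ φ 6) ^ w *
      (B ^ φ (-8) - B ^ φ (-4) + B ^ φ 0 - B ^ φ 4 + B ^ φ 8) ^ (24 - w)
   + ((B ^ φ (-5) + B ^ φ (-1) + B ^ φ 3 + B ^ φ 7) ^ w *
      (B ^ φ (-7) + B ^ φ (-3) + B ^ φ 1 + B ^ φ 5) ^ (24 - w)
   - (B ^ φ (-5) - B ^ φ (-1) + B ^ φ 3 - B ^ φ 7) ^ w *
      (B ^ φ (-7) - B ^ φ (-3) + B ^ φ 1 - B ^ φ 5) ^ (24 - w))

theorem FFg_eq (B : ℤ) (w : ℕ) : FFg φ B w = FFxg φ B w := by
  rw [FFg, Finset.sum_range_succ, Finset.sum_range_one]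
  norm_num
  rw [PPg0, PPg1, PPg2, PPg3, QQg0, QQg1, QQg2, QQg3, FFxg]
  ring

def thetag (B : ℤ) : ℤ :=
  FFxg φ B 0 + 759 * FFxg φ B 8 + 2576 * FFxg φ B 12 + 759 * FFxg φ B 16 + FFxg φ B 24

/-- the number of vectors of the box part `LL` of the lattice with `∑ φ (x i) = N`. -/
theorem count_g (N : ℕ) :
    (LL.filter (fun x => eeg φ x = N)).card =
      (thetag φ (2 ^ 100)).toNat / 2 / (2 ^ 100) ^ N % 2 ^ 100 := by
  rw [← digit_extract (2 ^ 100) LL (eeg φ) card_LL_lt N]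
  congr 2
  have h1 := two_mul_sum_LLg φ (2 ^ 100)
  rw [sum_GCfin (fun c hc => GC_card hc) Cfsg.Agent.S0360.result Cfsg.Agent.S0361.result] at h1
  simp only [FFg_eq] at h1
  change _ = thetag φ (2 ^ 100) at h1
  rw [← h1]
  have : (2 * ∑ x ∈ LL, (2 ^ 100 : ℤ) ^ eeg φ x) = ((2 * ∑ x ∈ LL, (2 ^ 100) ^ eeg φ x : ℕ) : ℤ) := by
    push_cast; rfl
  rw [this, Int.toNat_natCast, Nat.mul_div_cancel_left _ (by norm_num)]

/-- a set of lattice vectors of bounded norm cut out by a `φ`-sum. -/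
theorem ncard_eq_count (p : (GolayPt → ℤ) → Prop) (N M : ℕ) (hM : M ≤ 64)
    (h : ∀ x : GolayPt → ℤ, (∀ i, -8 ≤ x i ∧ x i ≤ 8) → ((sqNorm x = M ∧ p x) ↔ eeg φ x = N)) :
    {x : GolayPt → ℤ | x ∈ leechLattice ∧ sqNorm x = M ∧ p x}.ncard =
      (thetag φ (2 ^ 100)).toNat / 2 / (2 ^ 100) ^ N % 2 ^ 100 := by
  classical
  rw [← count_g, ← Set.ncard_coe_finset]
  congr 1
  ext x
  simp only [Set.mem_ofPred_eq, Finset.coe_filter, mem_leechLattice_iff]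
  rw [LL, Finset.mem_filter]
  unfold Cfsg.Agent.Lib.Helper7.box
  rw [Fintype.mem_piFinset]
  constructor
  · rintro ⟨h1, h2, h3⟩
    have hb : ∀ i, -8 ≤ x i ∧ x i ≤ 8 := by
      intro i
      have h3 : (x i) ^ 2 ≤ 64 := by
        calc (x i) ^ 2 ≤ ∑ i, x i ^ 2 :=
              Finset.single_le_sum (f := fun i => x i ^ 2) (fun i _ => sq_nonneg _) (Finset.mem_univ i)
          _ = sqNorm x := rfl
          _ ≤ 64 := by rw [h2]; exact_mod_cast hM
      constructor <;> nlinarith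
    exact ⟨⟨fun i => Finset.mem_Icc.2 (hb i), h1⟩, (h x hb).1 ⟨h2, h3⟩⟩
  · rintro ⟨⟨hb, h1⟩, h2⟩
    have := (h x (fun i => Finset.mem_Icc.1 (hb i))).2 h2
    exact ⟨h1, this.1, this.2⟩

end Cfsg.Agent.Lib.Helper26.LeechShape
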