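import Cfsg.Agent.Lib.Helper27.Trans

/-!
# Transitivity of `M24` on small configurations of sets; counting subsets by intersection size
-/

set_option autoImplicit false

namespace Cfsg.Agent.Lib.Helper26

open Cfsg Cfsg.Agent.Lib.Helper27
open scoped Pointwise

/-- `M24` maps any duplicate-free list of at most five points to any other of the same length. -/
theorem exists_map_list (L L' : List GolayPt) (hL : L.Nodup) (hL' : L'.Nodup)
    (hlen : L.length = L'.length) (h5 : L.length ≤ 5) : ∃ g ∈ M24, L.map g = L' := by
  have := isMultiplyPretransitive_M24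
  have hk : MulAction.IsMultiplyPretransitive M24 GolayPt L.length :=
    MulAction.isMultiplyPretransitive_of_le h5 (by
      rw [Nat.card_eq_fintype_card]; decide)
  let x : Fin L.length ↪ GolayPt := ⟨L.get, List.nodup_iff_injective_get.1 hL⟩
  let y : Fin L.length ↪ GolayPt := ⟨fun i => L'.get (Fin.cast hlen i), fun i j h => by
    have := List.nodup_iff_injective_get.1 hL' h
    exact Fin.cast_injective hlen this⟩
  obtain ⟨g, hg⟩ := (MulAction.isMultiplyPretransitive_iff.1 hk) x y
  refine ⟨g.1, g.2, ?_⟩
  apply List.ext_get (by rw [List.length_map, hlen])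
  intro n h1 h2
  have h3 : n < L.length := by simpa using h1
  have := congrArg (fun f : Fin L.length ↪ GolayPt => f ⟨n, h3⟩) hg
  simp only [List.get_eq_getElem, List.getElem_map]
  exact this

theorem smul_toFinset (g : Equiv.Perm GolayPt) (l : List GolayPt) :
    g • l.toFinset = (l.map g).toFinset := by
  ext p
  simp only [Finset.mem_smul_finset, List.mem_toFinset, List.mem_map]
  rfl

/-- three pairwise disjoint cells with at most five points in all can be moved to three other such
cells of the same sizes -/
theorem exists_map_cells {P₁ P₂ P₃ Q₁ Q₂ Q₃ : Finset GolayPt}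
    (hP12 : Disjoint P₁ P₂) (hP13 : Disjoint P₁ P₃) (hP23 : Disjoint P₂ P₃)
    (hQ12 : Disjoint Q₁ Q₂) (hQ13 : Disjoint Q₁ Q₃) (hQ23 : Disjoint Q₂ Q₃)
    (h1 : P₁.card = Q₁.card) (h2 : P₂.card = Q₂.card) (h3 : P₃.card = Q₃.card)
    (h5 : P₁.card + P₂.card + P₃.card ≤ 5) :
    ∃ g ∈ M24, g • P₁ = Q₁ ∧ g • P₂ = Q₂ ∧ g • P₃ = Q₃ := by
  have nd : ∀ {A B C : Finset GolayPt}, Disjoint A B → Disjoint A C → Disjoint B C →
      (A.toList ++ (B.toList ++ C.toList)).Nodup := by
    intro A B C hAB hAC hBC
    rw [List.nodup_append, List.nodup_append]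
    refine ⟨A.nodup_toList, ⟨B.nodup_toList, C.nodup_toList, ?_⟩, ?_⟩
    · intro a ha b hb hab
      rw [Finset.mem_toList] at ha hb
      exact Finset.disjoint_left.1 hBC ha (hab ▸ hb)
    · intro a ha b hb hab
      rw [Finset.mem_toList] at ha
      rw [List.mem_append, Finset.mem_toList, Finset.mem_toList] at hb
      rcases hb with hb | hb
      · exact Finset.disjoint_left.1 hAB ha (hab ▸ hb)
      · exact Finset.disjoint_left.1 hAC ha (hab ▸ hb)
  obtain ⟨g, hg, hmap⟩ := exists_map_list _ _ (nd hP12 hP13 hP23) (nd hQ12 hQ13 hQ23)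
    (by simp only [List.length_append, Finset.length_toList]; omega)
    (by simp only [List.length_append, Finset.length_toList]; omega)
  rw [List.map_append, List.map_append] at hmap
  obtain ⟨e1, e23⟩ := List.append_inj hmap (by simp [h1])
  obtain ⟨e2, e3⟩ := List.append_inj e23 (by simp [h2])
  refine ⟨g, hg, ?_, ?_, ?_⟩
  · conv_lhs => rw [← Finset.toList_toFinset P₁]
    rw [smul_toFinset, e1, Finset.toList_toFinset]
  · conv_lhs => rw [← Finset.toList_toFinset P₂]
    rw [smul_toFinset, e2, Finset.toList_toFinset]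
  · conv_lhs => rw [← Finset.toList_toFinset P₃]
    rw [smul_toFinset, e3, Finset.toList_toFinset]

/-- pairs of sets with at most five points in the union: the `M24`-class is determined by the
sizes -/
theorem exists_map_pair {s y s' y' : Finset GolayPt} (h1 : (s ∩ y).card = (s' ∩ y').card)
    (h2 : s.card = s'.card) (h3 : y.card = y'.card) (h5 : (s ∪ y).card ≤ 5) :
    ∃ g ∈ M24, g • s = s' ∧ g • y = y' := by
  have a1 := Finset.card_sdiff_add_card_inter s y
  have a2 := Finset.card_sdiff_add_card_inter s' y'
  have a3 := Finset.card_sdiff_add_card_inter y s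
  have a4 := Finset.card_sdiff_add_card_inter y' s'
  rw [Finset.inter_comm y s] at a3
  rw [Finset.inter_comm y' s'] at a4
  have a5 := Finset.card_union_add_card_inter s y
  have dis : ∀ a b : Finset GolayPt, Disjoint (a ∩ b) (a \ b) ∧ Disjoint (a ∩ b) (b \ a) ∧
      Disjoint (a \ b) (b \ a) := by
    intro a b
    refine ⟨?_, ?_, ?_⟩ <;> rw [Finset.disjoint_left] <;> intro p hp hp' <;>
      simp only [Finset.mem_inter, Finset.mem_sdiff] at hp hp' <;> tauto
  obtain ⟨g, hg, e1, e2, e3⟩ := exists_map_cells (dis s y).1 (dis s y).2.1 (dis s y).2.2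
    (dis s' y').1 (dis s' y').2.1 (dis s' y').2.2 h1 (by omega) (by omega) (by omega)
  refine ⟨g, hg, ?_, ?_⟩
  · have hs : ∀ a b : Finset GolayPt, a = (a ∩ b) ∪ (a \ b) := fun a b => by
      rw [Finset.union_comm, Finset.sdiff_union_inter]
    rw [hs s y, Finset.smul_finset_union, e1, e2, ← hs s' y']
  · have hs : ∀ a b : Finset GolayPt, b = (a ∩ b) ∪ (b \ a) := fun a b => by
      rw [Finset.union_comm, Finset.inter_comm, Finset.sdiff_union_inter]
    rw [hs s y, Finset.smul_finset_union, e1, e3, ← hs s' y']

theorem nodup_flatMap_toList {P : List (Finset GolayPt)} (hP : P.Pairwise Disjoint) :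
    (P.flatMap Finset.toList).Nodup := by
  rw [List.nodup_flatMap]
  refine ⟨fun x _ => x.nodup_toList, hP.imp ?_⟩
  intro a b hab x hxa hxb
  rw [Finset.mem_toList] at hxa hxb
  exact Finset.disjoint_left.1 hab hxa hxb

theorem length_flatMap_toList (P : List (Finset GolayPt)) :
    (P.flatMap Finset.toList).length = (P.map Finset.card).sum := by
  induction P with
  | nil => rfl
  | cons a P ih => simp [List.flatMap_cons, ih]

theorem sum_card_eq {P Q : List (Finset GolayPt)}
    (h : List.Forall₂ (fun a b => a.card = b.card) P Q) :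
    (P.map Finset.card).sum = (Q.map Finset.card).sum := by
  induction h with
  | nil => rfl
  | cons h1 _ ih => simp [h1, ih]

theorem forall₂_smul_of_map {g : Equiv.Perm GolayPt} {P Q : List (Finset GolayPt)}
    (h : List.Forall₂ (fun a b => a.card = b.card) P Q)
    (hmap : (P.flatMap Finset.toList).map g = Q.flatMap Finset.toList) :
    List.Forall₂ (fun a b => g • a = b) P Q := by
  induction h with
  | nil => exact List.Forall₂.nil
  | @cons a b P Q h1 _ ih =>
    rw [List.flatMap_cons, List.flatMap_cons, List.map_append] at hmap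
    obtain ⟨e1, e2⟩ := List.append_inj hmap (by simp [h1])
    refine List.Forall₂.cons ?_ (ih e2)
    conv_lhs => rw [← Finset.toList_toFinset a]
    rw [smul_toFinset, e1, Finset.toList_toFinset]

/-- pairwise disjoint cells with at most five points in all can be moved to any other such cells of
the same sizes -/
theorem exists_map_cellList {P Q : List (Finset GolayPt)} (hP : P.Pairwise Disjoint)
    (hQ : Q.Pairwise Disjoint) (h : List.Forall₂ (fun a b => a.card = b.card) P Q)
    (h5 : (P.map Finset.card).sum ≤ 5) :
    ∃ g ∈ M24, List.Forall₂ (fun a b => g • a = b) P Q := by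
  obtain ⟨g, hg, hmap⟩ := exists_map_list _ _ (nodup_flatMap_toList hP) (nodup_flatMap_toList hQ)
    (by rw [length_flatMap_toList, length_flatMap_toList, sum_card_eq h])
    (by rw [length_flatMap_toList]; exact h5)
  exact ⟨g, hg, forall₂_smul_of_map h hmap⟩

end Cfsg.Agent.Lib.Helper26
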