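import Cfsg.Agent.S1524

/-!
# Sibley's coherence theorem with the Frobenius hypothesis in centraliser form
-/

set_option autoImplicit false

namespace Cfsg.Agent.Lib.Helper26.SibleyCore

open Cfsg Cfsg.Agent.Lib Cfsg.Agent.Lib.Helper26 Cfsg.Agent.Lib.Helper15
open scoped commutatorElement

section abstract

variable {L : Type*} [Group L]

/-- a Frobenius kernel admitting an involution outside is abelian -/
theorem comm_of_involution [Finite L] (K : Subgroup L) [hK : K.Normal]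
    (hC : ∀ k ∈ K, k ≠ 1 → Subgroup.centralizer ({k} : Set L) ≤ K) {t : L} (ht : t ∉ K)
    (ht2 : t * t = 1) : ∀ x ∈ K, ∀ y ∈ K, x * y = y * x := by
  have htinv : t⁻¹ = t := inv_eq_of_mul_eq_one_left ht2
  let f : K → K := fun a => ⟨t * a * t⁻¹ * (a : L)⁻¹, K.mul_mem (hK.conj_mem a a.2 t) (K.inv_mem a.2)⟩
  have hf : Function.Injective f := fun a b h =>
    Subtype.ext (FrobKer.comm_inj K hC ht a a.2 b b.2 (congrArg Subtype.val h))
  have hs := Finite.surjective_of_injective hf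
  have hinv : ∀ y ∈ K, t * y * t⁻¹ = y⁻¹ := by
    intro y hy
    obtain ⟨a, ha⟩ := hs ⟨y, hy⟩
    have ha' : t * a * t⁻¹ * (a : L)⁻¹ = y := congrArg Subtype.val ha
    rw [← ha', htinv]
    have e1 : t * (t * ↑a * t * (a : L)⁻¹) * t = (t * t) * ↑a * (t * (a : L)⁻¹ * t) := by group
    have e2 : (t * ↑a * t * (a : L)⁻¹)⁻¹ = ↑a * (t⁻¹ * (a : L)⁻¹ * t⁻¹) := by group
    rw [e1, e2, ht2, htinv, one_mul]
  intro x hx y hy
  have h1 := hinv (x * y) (K.mul_mem hx hy)
  have h2 : t * (x * y) * t⁻¹ = (t * x * t⁻¹) * (t * y * t⁻¹) := by group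
  rw [h2, hinv x hx, hinv y hy, mul_inv_rev] at h1
  have h3 := congrArg (fun w => w⁻¹) h1
  simpa using h3.symm

/-- a nonabelian Frobenius kernel of odd order lies in a group of odd order -/
theorem odd_of_nonabelian [Finite L] (K : Subgroup L) [hK : K.Normal]
    (hC : ∀ k ∈ K, k ≠ 1 → Subgroup.centralizer ({k} : Set L) ≤ K) (hKodd : Odd (Nat.card K))
    (hna : ¬ ∀ x ∈ K, ∀ y ∈ K, x * y = y * x) : Odd (Nat.card L) := by
  by_contra hodd
  rw [Nat.not_odd_iff_even, even_iff_two_dvd] at hodd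
  obtain ⟨t, ht⟩ := exists_prime_orderOf_dvd_card' 2 hodd
  apply hna
  refine comm_of_involution K hC (t := t) ?_ ?_
  · intro htK
    have h1 : orderOf (⟨t, htK⟩ : K) ∣ Nat.card K := orderOf_dvd_natCard _
    rw [Subgroup.orderOf_mk, ht] at h1
    exact (Nat.not_even_iff_odd.2 hKodd) (even_iff_two_dvd.2 h1)
  · rw [← pow_two, ← ht]
    exact pow_orderOf_eq_one t

variable [Fintype L]

/-- the characters induced from the kernel of a Frobenius group -/
theorem S_eq (K : Subgroup L) [hK : K.Normal]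
    (hC : ∀ k ∈ K, k ≠ 1 → Subgroup.centralizer ({k} : Set L) ≤ K) :
    inducedIrrAbove K ⊥ = {χ | IsIrrCharacter L χ ∧ ∃ x ∈ K, χ x ≠ χ 1} := by
  ext χ
  constructor
  · rintro ⟨θ, h1, h2, _, rfl⟩
    refine ⟨Cfsg.Agent.S1528.irr_indFun K hC h1 h2, ?_⟩
    by_contra hcon
    push Not at hcon
    apply h2
    apply IndIrr.eq_one_of_const h1
    intro a
    exact (Cfsg.Agent.S1487.result K K le_rfl θ h1).2 hcon a a.2
  · rintro ⟨h1, x, hx, hne⟩
    obtain ⟨φ, hφ, rfl⟩ := Cfsg.Agent.S1528.result K hC χ h1 ⟨x, hx, hne⟩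
    refine ⟨φ, hφ, ?_, ?_, rfl⟩
    · intro h
      apply hne
      exact (Cfsg.Agent.S1487.result K K le_rfl φ hφ).1 (by intro a _; rw [h]) x hx
    · intro a ha
      have : a = 1 := Subtype.ext (Subgroup.mem_bot.1 ha)
      rw [this]

end abstract

section ti

variable {G : Type*} [Group G] [Fintype G] (H L : Subgroup G) [Fintype L]

theorem normal_of_normalizer (hN : Subgroup.normalizer (H : Set G) = L) :
    (H.subgroupOf L).Normal := by
  subst hN
  exact Subgroup.normal_in_normalizer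

/-- centraliser condition inside `L` -/
theorem hC_of (hC : ∀ k ∈ H, k ≠ 1 → Subgroup.centralizer ({k} : Set G) ≤ H) :
    ∀ k ∈ H.subgroupOf L, k ≠ 1 → Subgroup.centralizer ({k} : Set L) ≤ H.subgroupOf L := by
  intro k hk hk1 g hg
  rw [Subgroup.mem_centralizer_singleton_iff] at hg
  rw [Subgroup.mem_subgroupOf]
  apply hC k (Subgroup.mem_subgroupOf.1 hk) (fun h => hk1 (Subtype.ext h))
  rw [Subgroup.mem_centralizer_singleton_iff]
  exact congrArg Subtype.val hg

/-- irreducibility and the coherence system -/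
theorem setup (hodd : Odd (Nat.card L)) (hTI : IsTISubset (H : Set G))
    (hN : Subgroup.normalizer (H : Set G) = L) [(H.subgroupOf L).Normal]
    (hsolv : Group.IsSolvable (H.subgroupOf L)) (hKbot : H.subgroupOf L ≠ ⊥)
    (hKtop : H.subgroupOf L < ⊤)
    (hC : ∀ k ∈ H.subgroupOf L, k ≠ 1 → Subgroup.centralizer ({k} : Set L) ≤ H.subgroupOf L) :
    (∀ χ ∈ inducedIrrAbove (H.subgroupOf L) ⊥, IsIrrCharacter L χ) ∧
    ∃ R : (L → ℂ) → Finset (G → ℂ), IsCoherenceSystem (inducedIrrAbove (H.subgroupOf L) ⊥)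
      (fun α : L → ℂ => indFun L α) R := by
  set K := H.subgroupOf L with hKdef
  have hirr : ∀ χ ∈ inducedIrrAbove K ⊥, IsIrrCharacter L χ := by
    rintro χ ⟨θ, h1, h2, _, rfl⟩
    exact Cfsg.Agent.S1528.irr_indFun K hC h1 h2
  obtain ⟨x₀, hx₀⟩ : ∃ x : L, x ∉ K := by
    by_contra hcon
    push Not at hcon
    exact hKtop.ne ((Subgroup.eq_top_iff' K).2 hcon)
  have hconj : ∀ χ ∈ inducedIrrAbove K ⊥,
      conjFun χ ∈ inducedIrrAbove K ⊥ ∧ conjFun χ ≠ χ := by
    intro χ hχ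
    refine ⟨IndIrr.conj_mem K hχ, fun hreal => ?_⟩
    have h1 := Helper81.IsIrrCharacter.eq_one_of_real_of_odd hodd (hirr χ hχ) (fun g => by
      have := congrFun hreal g
      exact Complex.conj_eq_iff_im.1 this)
    obtain ⟨θ, _, _, _, rfl⟩ := hχ
    have h2 := indFun_normal_not_mem K θ hx₀
    rw [h1] at h2
    exact one_ne_zero h2
  obtain ⟨hiso, hone⟩ := Cfsg.Agent.S1524.ti_isometry H L hTI hN
  obtain ⟨φ₀, hφ₀, _⟩ := IndIrr.exists_linear K hsolv ⊥ (bot_lt_iff_ne_bot.2 hKbot)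
  exact ⟨hirr, Cfsg.Agent.S1514.result (inducedIrrAbove K ⊥) ⟨φ₀, hφ₀⟩ hirr hconj _ hiso hone⟩

/-- Sibley's theorem, centraliser form -/
theorem core (hodd : Odd (Nat.card L)) (hHL : H ≤ L) (hH1 : H ≠ ⊥) (hHL' : H ≠ L)
    (hnil : Group.IsNilpotent H)
    (hC₀ : ∀ k ∈ H.subgroupOf L, k ≠ 1 → Subgroup.centralizer ({k} : Set L) ≤ H.subgroupOf L)
    (hTI : IsTISubset (H : Set G)) (hN : Subgroup.normalizer (H : Set G) = L) :
    IsCoherent (inducedIrrAbove (H.subgroupOf L) ⊥) {1}ᶜ (fun α : L → ℂ => indFun L α) := by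
  classical
  have hKn := normal_of_normalizer H L hN
  set K := H.subgroupOf L with hKdef
  set τ : (L → ℂ) → (G → ℂ) := fun α : L → ℂ => indFun L α with hτdef
  have hC : ∀ k ∈ K, k ≠ 1 → Subgroup.centralizer ({k} : Set L) ≤ K := hC₀
  have hnilK : Group.IsNilpotent K :=
    @Group.nilpotent_of_mulEquiv _ _ _ _ hnil (Subgroup.subgroupOfEquivOfLe hHL).symm
  have hsolv : Group.IsSolvable K := IsNilpotent.to_isSolvable
  have hKbot : K ≠ ⊥ := by
    intro h
    apply hH1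
    rw [eq_bot_iff]
    intro x hx
    have hm : (⟨x, hHL hx⟩ : L) ∈ K := Subgroup.mem_subgroupOf.2 hx
    rw [h, Subgroup.mem_bot] at hm
    exact Subgroup.mem_bot.2 (congrArg Subtype.val hm)
  have hKtop : K < ⊤ := by
    rw [lt_top_iff_ne_top]
    intro h
    rw [hKdef, Subgroup.subgroupOf_eq_top] at h
    exact hHL' (le_antisymm hHL h)
  have hK'K : ⁅K, K⁆ < K := FrobKer.comm_lt K hnilK hKbot
  obtain ⟨hirr, R, hS⟩ := setup H L hodd hTI hN hsolv hKbot hKtop hC
  have hfrob := FrobKer.frob_quot K ⁅K, K⁆ hK'K.le hC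
  have h21 := Cfsg.Agent.S1521.result K hsolv τ R hS hodd ⊥ bot_le inferInstance ⁅K, K⁆
    (sup_bot_eq _).symm hK'K hKtop hfrob
  by_cases hpp : ∃ p m : ℕ, p.Prime ∧ (⊥ : Subgroup L).relIndex K = p ^ m
  swap
  · exact h21 (Or.inr (Or.inr (Or.inl hpp)))
  by_cases hab : ⁅K, K⁆ ≤ ⊥
  · exact h21 (Or.inr (Or.inr (Or.inr (Or.inl hab))))
  obtain ⟨p, m, hp, hpm⟩ := hpp
  rw [Subgroup.relIndex_bot_left] at hpm
  obtain ⟨Z, hZn, hZ1, hZK', hZc⟩ := FrobKer.exists_central K hnilK (fun h => hab h.le)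
  have hZK : Z ≤ K := hZK'.trans hK'K.le
  obtain ⟨hS2eq, hS2coh⟩ := Cfsg.Agent.S1522.result K hsolv τ R hS hodd hnilK hK'K hKtop hfrob Z
    hZ1 hZK hZc (fun χ hχ => hirr χ hχ.1)
  have hedvd := FrobKer.index_dvd_card_sub_one K Z hZK hZc hC
  have hZcard1 : 1 < Nat.card Z := (Subgroup.one_lt_card_iff_ne_bot Z).2 hZ1
  have hpe : ¬ p ∣ K.index := by
    intro hd
    have h1 : p ∣ Nat.card Z - 1 := hd.trans hedvd
    have h2 : p ∣ Nat.card Z := by
      have h3 : Nat.card Z ∣ p ^ m := by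
        rw [← hpm]; exact Subgroup.card_dvd_of_le hZK
      obtain ⟨i, _, hi⟩ := (Nat.dvd_prime_pow hp).1 h3
      rw [hi]
      have : i ≠ 0 := by
        rintro rfl
        rw [hi] at hZcard1
        simp at hZcard1
      exact dvd_pow_self p this
    have h4 : p ∣ 1 := by
      have := Nat.dvd_sub h2 h1
      rwa [Nat.sub_sub_self hZcard1.le] at this
    exact hp.one_lt.ne' (Nat.dvd_one.1 h4)
  have hcardH : Nat.card H = p ^ m := by
    rw [← hpm]
    exact (Nat.card_congr (Subgroup.subgroupOfEquivOfLe hHL).toEquiv).symm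
  obtain ⟨hne2, τ2, hτ2, hag2⟩ := hS2coh
  have hctx : Sibley.Ctx K Z τ R τ2 :=
    { ind := fun α => rfl
      sys := hS
      irr := hirr
      Z1 := hZ1
      ZK := hZK'
      S2eq := hS2eq
      iso2 := hτ2
      ag2 := hag2
      h67 := fun χ hχ hconst z hz hz1 =>
        Cfsg.Agent.S1524.h67_of H L hodd hHL hTI hN p m hp hcardH hpe hC Z hZ1 hZK hZc χ hχ hconst
          z hz hz1 }
  have hS2ne : (inducedIrrAbove K ⊥ \ inducedIrrAbove K Z).Nonempty := by
    by_contra hemp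
    rw [Set.not_nonempty_iff_eq_empty] at hemp
    obtain ⟨α, hα, hα0⟩ := hne2
    apply hα0
    have := hα.1
    rw [hemp] at this
    simpa [zspan] using this
  have hglue := hctx.glue_main hsolv hK'K hS2ne
  have hoddL : ∀ n, n ∣ Nat.card L → Odd n := fun n hn => Odd.of_dvd_nat hodd hn
  have hZbig : 2 * K.index + 1 ≤ Nat.card Z :=
    FrobSection.two_mul_add_one_le (hoddL _ (Subgroup.index_dvd_card K))
      (hoddL _ (Subgroup.card_subgroup_dvd_card Z)) hZcard1 hedvd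
  exact Sibley.full_coherent K hsolv τ R hS Z hZK' hK'K hZc hZbig hglue

end ti

end Cfsg.Agent.Lib.Helper26.SibleyCore
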